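import Mathlib
import Cfsg.Agent.Lib.Helper44.Frob3.Defs

/-!
# S4427 package [T0] (helper48): the trace of an idempotent complex matrix

Also the eigenvector tools shared with package [T].
-/

set_option autoImplicit false

namespace Cfsg.Agent.Lib.Helper48.Frob3

open Matrix

/-- a root of the characteristic polynomial has an eigenvector -/
theorem exists_eigvec {n : ℕ} (W : Matrix (Fin n) (Fin n) ℂ) {ν : ℂ}
    (hν : ν ∈ W.charpoly.roots) : ∃ v : Fin n → ℂ, v ≠ 0 ∧ W *ᵥ v = ν • v := by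
  have h1 : W.charpoly.eval ν = 0 := (Polynomial.mem_roots'.mp hν).2
  rw [Matrix.eval_charpoly] at h1
  obtain ⟨v, hv, h2⟩ := Matrix.exists_mulVec_eq_zero_iff.mpr h1
  refine ⟨v, hv, ?_⟩
  rw [Matrix.scalar_apply, ← Matrix.smul_one_eq_diagonal, Matrix.sub_mulVec, Matrix.smul_mulVec,
    Matrix.one_mulVec, sub_eq_zero] at h2
  exact h2.symm

theorem trace_eq_roots_sum {n : ℕ} (W : Matrix (Fin n) (Fin n) ℂ) :
    W.trace = W.charpoly.roots.sum :=
  Matrix.trace_eq_sum_roots_charpoly W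

theorem card_roots_charpoly {n : ℕ} (W : Matrix (Fin n) (Fin n) ℂ) :
    Multiset.card W.charpoly.roots = n := by
  rw [Polynomial.splits_iff_card_roots.mp (IsAlgClosed.splits W.charpoly),
    Matrix.charpoly_natDegree_eq_dim, Fintype.card_fin]

/-- a multiset of zeros and ones sums to a natural number -/
theorem sum_zero_one (s : Multiset ℂ) (h : ∀ ν ∈ s, ν = 0 ∨ ν = 1) :
    ∃ u : ℕ, u ≤ Multiset.card s ∧ s.sum = (u : ℂ) := by
  induction s using Multiset.induction_on with
  | empty => exact ⟨0, le_refl _, by simp⟩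
  | cons a s ih =>
    obtain ⟨u, hu, hsum⟩ := ih (fun ν hν => h ν (Multiset.mem_cons_of_mem hν))
    rcases h a (Multiset.mem_cons_self a s) with ha | ha
    · refine ⟨u, ?_, ?_⟩
      · rw [Multiset.card_cons]; omega
      · rw [Multiset.sum_cons, ha, zero_add, hsum]
    · refine ⟨u + 1, ?_, ?_⟩
      · rw [Multiset.card_cons]; omega
      · rw [Multiset.sum_cons, ha, hsum]; push_cast; ring

/-- **[T0]** -/
theorem pkgTrace0 : Cfsg.Agent.Lib.Helper44.Frob3.PkgTrace0 := by
  intro n W hW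
  have h1 : ∀ ν ∈ W.charpoly.roots, ν = 0 ∨ ν = 1 := by
    intro ν hν
    obtain ⟨v, hv, hWv⟩ := exists_eigvec W hν
    have h2 : (W * W) *ᵥ v = (ν * ν) • v := by
      rw [← Matrix.mulVec_mulVec, hWv, Matrix.mulVec_smul, hWv, smul_smul]
    rw [hW, hWv] at h2
    have h3 : (ν * ν - ν) • v = 0 := by rw [sub_smul, ← h2, sub_self]
    rcases smul_eq_zero.mp h3 with h4 | h4
    · have h5 : ν * (ν - 1) = 0 := by rw [← h4]; ring
      rcases mul_eq_zero.mp h5 with h6 | h6
      · exact Or.inl h6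
      · exact Or.inr (sub_eq_zero.mp h6)
    · exact absurd h4 hv
  obtain ⟨u, hu, hsum⟩ := sum_zero_one _ h1
  refine ⟨u, ?_, ?_⟩
  · rw [card_roots_charpoly] at hu; exact hu
  · rw [trace_eq_roots_sum, hsum]

end Cfsg.Agent.Lib.Helper48.Frob3
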