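import Mathlib
import Cfsg.Agent.Lib.Helper44.Frob3.Defs
import Cfsg.Agent.Lib.Helper16.LocalRing
import Cfsg.Agent.Lib.Helper48.Frob3.Trace0

/-!
# S4427 package [T] (helper48): the trace congruence for a matrix idempotent modulo `p^J`
-/

set_option autoImplicit false

namespace Cfsg.Agent.Lib.Helper48.Frob3

open Matrix
open Cfsg.Agent.Lib.Helper16

/-- an integer polynomial in a matrix acts on an eigenvector by its value at the eigenvalue -/
theorem aeval_mulVec_eigvec {n : ℕ} {A : Matrix (Fin n) (Fin n) ℂ} {v : Fin n → ℂ} {μ : ℂ}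
    (h : A *ᵥ v = μ • v) (P : Polynomial ℤ) :
    (Polynomial.aeval A P) *ᵥ v = (Polynomial.aeval μ P) • v := by
  have hpow : ∀ k : ℕ, (A ^ k) *ᵥ v = μ ^ k • v := by
    intro k
    induction k with
    | zero => simp
    | succ k ih =>
      rw [pow_succ, ← Matrix.mulVec_mulVec, h, Matrix.mulVec_smul, ih, smul_smul, pow_succ,
        mul_comm]
  induction P using Polynomial.induction_on' with
  | add p q hp hq => rw [map_add, map_add, Matrix.add_mulVec, hp, hq, add_smul]
  | monomial k a =>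
    rw [Polynomial.aeval_monomial, Polynomial.aeval_monomial, ← Algebra.smul_def,
      ← Algebra.smul_def, Matrix.smul_mulVec, hpow, smul_assoc]

/-- eigenvalues of integral matrices are algebraic integers -/
theorem isIntegral_eigenvalue {n : ℕ} {A : Matrix (Fin n) (Fin n) ℂ} (hA : IsIntegral ℤ A)
    {v : Fin n → ℂ} (hv : v ≠ 0) {μ : ℂ} (h : A *ᵥ v = μ • v) : IsIntegral ℤ μ := by
  obtain ⟨P, hP, hPA⟩ := hA
  refine ⟨P, hP, ?_⟩
  have h1 := aeval_mulVec_eigvec h P
  rw [Polynomial.aeval_def, hPA, Matrix.zero_mulVec] at h1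
  rcases smul_eq_zero.mp h1.symm with h2 | h2
  · rw [Polynomial.aeval_def] at h2; exact h2
  · exact absurd h2 hv

/-- a complex number with an integral multiple by a natural number prime to `p` lies in the
local ring -/
theorem memLocalRing_of_natCast_mul {p : ℕ} {M : Ideal Cfsg.AlgInt} (hM : Cfsg.IsPModular p M)
    {c : ℕ} (hc : ¬ p ∣ c) {x : ℂ} (hx : IsIntegral ℤ ((c : ℂ) * x)) : Cfsg.MemLocalRing M x := by
  have hc0 : (c : ℂ) ≠ 0 := by
    intro h0
    apply hc
    have : c = 0 := by exact_mod_cast h0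
    rw [this]; exact dvd_zero p
  have hcc : (((c : Cfsg.AlgInt) : ℂ)) = (c : ℂ) := by simp
  refine ⟨⟨(c : ℂ) * x, hx⟩, (c : Cfsg.AlgInt), fun h => hc ((natCast_mem_iff hM c).mp h), ?_⟩
  rw [hcc]
  field_simp

/-- the multiset induction -/
theorem sum_local {M : Ideal Cfsg.AlgInt} (hM : M.IsPrime) (P : ℂ) (s : Multiset ℂ)
    (h : ∀ ν ∈ s, Cfsg.MemLocalRing M ((ν - 1) / P) ∨ Cfsg.MemLocalRing M (ν / P)) :
    ∃ u : ℕ, u ≤ Multiset.card s ∧ Cfsg.MemLocalRing M ((s.sum - (u : ℂ)) / P) := by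
  induction s using Multiset.induction_on with
  | empty => exact ⟨0, le_refl _, by simpa using memLocalRing_zero hM⟩
  | cons a s ih =>
    obtain ⟨u, hu, hsum⟩ := ih (fun ν hν => h ν (Multiset.mem_cons_of_mem hν))
    rcases h a (Multiset.mem_cons_self a s) with ha | ha
    · refine ⟨u + 1, ?_, ?_⟩
      · rw [Multiset.card_cons]; omega
      · have h1 := memLocalRing_add hM ha hsum
        have h2 : ((a ::ₘ s).sum - ((u + 1 : ℕ) : ℂ)) / P = (a - 1) / P + (s.sum - (u : ℂ)) / P := by
          rw [Multiset.sum_cons]; push_cast; ring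
        rw [h2]; exact h1
    · refine ⟨u, ?_, ?_⟩
      · rw [Multiset.card_cons]; omega
      · have h1 := memLocalRing_add hM ha hsum
        have h2 : ((a ::ₘ s).sum - (u : ℂ)) / P = a / P + (s.sum - (u : ℂ)) / P := by
          rw [Multiset.sum_cons]; ring
        rw [h2]; exact h1

/-- **[T]** -/
theorem pkgTrace : Cfsg.Agent.Lib.Helper44.Frob3.PkgTrace := by
  intro p M hM n W E c J hc hJ hW hE hWE
  have hprime := isPrime_of_isPModular hM
  have hp0 : ((p : ℂ) ^ J) ≠ 0 := by
    apply pow_ne_zero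
    exact_mod_cast hM.1.ne_zero
  have hc2 : ¬ p ∣ c ^ 2 := fun h => hc (hM.1.dvd_of_dvd_pow h)
  have h1 : ∀ ν ∈ W.charpoly.roots, Cfsg.MemLocalRing M ((ν - 1) / (p : ℂ) ^ J) ∨
      Cfsg.MemLocalRing M (ν / (p : ℂ) ^ J) := by
    intro ν hν
    obtain ⟨v, hv, hWv⟩ := exists_eigvec W hν
    -- `ν` is in the local ring
    have hν1 : Cfsg.MemLocalRing M ν := by
      apply memLocalRing_of_natCast_mul hM hc
      apply isIntegral_eigenvalue hW hv
      rw [Matrix.smul_mulVec, hWv, smul_smul]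
    -- the eigenvalue of `E`
    have hEv : E *ᵥ v = ((ν * ν - ν) / (p : ℂ) ^ J) • v := by
      have h2 : (W * W - W) *ᵥ v = (ν * ν - ν) • v := by
        rw [Matrix.sub_mulVec, ← Matrix.mulVec_mulVec, hWv, Matrix.mulVec_smul, hWv, smul_smul,
          sub_smul]
      rw [hWE, Matrix.smul_mulVec] at h2
      rw [div_eq_inv_mul, ← smul_smul, ← h2, smul_smul, inv_mul_cancel₀ hp0, one_smul]
    have hη : Cfsg.MemLocalRing M ((ν * ν - ν) / (p : ℂ) ^ J) := by
      apply memLocalRing_of_natCast_mul hM hc2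
      apply isIntegral_eigenvalue hE hv
      rw [Matrix.smul_mulVec, hEv, smul_smul]
      push_cast
      rfl
    by_cases hνI : Cfsg.MemLocalIdeal M ν
    · right
      have h3 : ¬ Cfsg.MemLocalIdeal M (ν - 1) := by
        intro h4
        have h5 := memLocalIdeal_sub hprime hνI h4
        rw [sub_sub_cancel] at h5
        exact not_memLocalIdeal_one hprime h5
      have h4 : Cfsg.MemLocalRing M (ν - 1) := memLocalRing_sub hprime hν1 (memLocalRing_one hprime)
      have h5 : ν - 1 ≠ 0 := by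
        intro h0
        rw [h0] at h3
        exact h3 (memLocalIdeal_zero hprime)
      have h6 := memLocalRing_mul hprime hη (memLocalRing_inv h4 h3)
      have h7 : (ν * ν - ν) / (p : ℂ) ^ J * (ν - 1)⁻¹ = ν / (p : ℂ) ^ J := by
        field_simp
      rw [h7] at h6
      exact h6
    · left
      have h5 : ν ≠ 0 := by
        intro h0
        rw [h0] at hνI
        exact hνI (memLocalIdeal_zero hprime)
      have h6 := memLocalRing_mul hprime hη (memLocalRing_inv hν1 hνI)
      have h7 : (ν * ν - ν) / (p : ℂ) ^ J * ν⁻¹ = (ν - 1) / (p : ℂ) ^ J := by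
        field_simp
      rw [h7] at h6
      exact h6
  obtain ⟨u, hu, hsum⟩ := sum_local hprime ((p : ℂ) ^ J) _ h1
  refine ⟨u, ?_, ?_⟩
  · rw [card_roots_charpoly] at hu; exact hu
  · rw [trace_eq_roots_sum]; exact hsum

end Cfsg.Agent.Lib.Helper48.Frob3
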